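import Mathlib
import Cfsg.Agent.H3.Jv2
/-! Unique holder of lemmas Lean writes on demand. -/
set_option linter.all false
namespace CfOD
theorem Helper1x2b0da90313_0 : type_of% @CfH3.J4.sg.eq_1 := @CfH3.J4.sg.eq_1
end CfOD
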