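import Mathlib
import Cfsg.Agent.H2.AutC
/-! Unique holder of lemmas Lean writes on demand. -/
set_option linter.all false
namespace CfOD
theorem Helper2xb69804c3c6_0 : type_of% @CfH2.Setup.Ind.congr_simp := @CfH2.Setup.Ind.congr_simp
end CfOD
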