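import Mathlib
import Cfsg.Agent.H3.Hf3
/-! Unique holder of lemmas Lean writes on demand. -/
set_option linter.all false
namespace CfOD
theorem Helper3x539a045db0_0 : type_of% @CfH3.Hf.chk.eq_1 := @CfH3.Hf.chk.eq_1
theorem Helper3x539a045db0_1 : type_of% @CfH3.Hf.chkA.eq_1 := @CfH3.Hf.chkA.eq_1
theorem Helper3x539a045db0_2 : type_of% @CfH3.Hf.chkB.eq_1 := @CfH3.Hf.chkB.eq_1
theorem Helper3x539a045db0_3 : type_of% @CfH3.Hf.cnt.eq_1 := @CfH3.Hf.cnt.eq_1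
theorem Helper3x539a045db0_4 : type_of% @CfH3.Hf.inA.eq_1 := @CfH3.Hf.inA.eq_1
theorem Helper3x539a045db0_5 : type_of% @CfH3.Hf.mS.eq_1 := @CfH3.Hf.mS.eq_1
theorem Helper3x539a045db0_6 : type_of% @CfH3.Hf.rc.eq_1 := @CfH3.Hf.rc.eq_1
theorem Helper3x539a045db0_7 : type_of% @CfH3.Hf.ru.eq_1 := @CfH3.Hf.ru.eq_1
theorem Helper3x539a045db0_8 : type_of% @CfH3.Hf.wr.eq_1 := @CfH3.Hf.wr.eq_1
end CfOD
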