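import Mathlib
import Cfsg.Agent.H3.JvE
/-! Unique holder of lemmas Lean writes on demand. -/
set_option linter.all false
namespace CfOD
theorem Helper3x980d94a12c_0 : type_of% @CfH3.J4.dl.eq_1 := @CfH3.J4.dl.eq_1
theorem Helper3x980d94a12c_1 : type_of% @CfH3.J4.dw.eq_1 := @CfH3.J4.dw.eq_1
theorem Helper3x980d94a12c_2 : type_of% @CfH3.J4.fin.eq_1 := @CfH3.J4.fin.eq_1
end CfOD
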