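import Mathlib
import Cfsg.Agent.H9.JS1
/-! Unique holder of lemmas Lean writes on demand. -/
set_option linter.all false
namespace CfOD
theorem Helper9x6064aff2c8_0 : type_of% @CfH3.J4.JS.ck.eq_1 := @CfH3.J4.JS.ck.eq_1
theorem Helper9x6064aff2c8_1 : type_of% @CfH3.J4.JS.cn.eq_1 := @CfH3.J4.JS.cn.eq_1
theorem Helper9x6064aff2c8_2 : type_of% @CfH3.J4.JS.fil.eq_1 := @CfH3.J4.JS.fil.eq_1
theorem Helper9x6064aff2c8_3 : type_of% @CfH3.J4.JS.fx.eq_1 := @CfH3.J4.JS.fx.eq_1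
theorem Helper9x6064aff2c8_4 : type_of% @CfH3.J4.JS.key.eq_1 := @CfH3.J4.JS.key.eq_1
theorem Helper9x6064aff2c8_5 : type_of% @CfH3.J4.JS.ut.eq_1 := @CfH3.J4.JS.ut.eq_1
theorem Helper9x6064aff2c8_6 : type_of% @CfH3.J4.JS.uu.eq_1 := @CfH3.J4.JS.uu.eq_1
end CfOD
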