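import Mathlib
import Cfsg.Agent.H3.Ta3
/-! Unique holder of lemmas Lean writes on demand. -/
set_option linter.all false
namespace CfOD
theorem Helper3xdff23d0ca6_0 : type_of% @CfH3.Th.aq.eq_1 := @CfH3.Th.aq.eq_1
theorem Helper3xdff23d0ca6_1 : type_of% @CfH3.Th.enum.eq_1 := @CfH3.Th.enum.eq_1
theorem Helper3xdff23d0ca6_2 : type_of% @CfH3.Th.finU.eq_1 := @CfH3.Th.finU.eq_1
theorem Helper3xdff23d0ca6_3 : type_of% @CfH3.Th.kk.eq_1 := @CfH3.Th.kk.eq_1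
theorem Helper3xdff23d0ca6_4 : type_of% @CfH3.Th.rd.eq_1 := @CfH3.Th.rd.eq_1
theorem Helper3xdff23d0ca6_5 : type_of% @CfH3.Th.sgl.eq_1 := @CfH3.Th.sgl.eq_1
theorem Helper3xdff23d0ca6_6 : type_of% @CfH3.Th.triv.eq_1 := @CfH3.Th.triv.eq_1
theorem Helper3xdff23d0ca6_7 : type_of% @CfH3.Th.wB.eq_1 := @CfH3.Th.wB.eq_1
theorem Helper3xdff23d0ca6_8 : type_of% @CfH3.Th.zb.eq_1 := @CfH3.Th.zb.eq_1
end CfOD
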