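import Mathlib
import Cfsg.Agent.H4.Mc2
/-! Unique holder of lemmas Lean writes on demand. -/
set_option linter.all false
namespace CfOD
theorem Helper8xdeca89cf1b_0 : type_of% @CfH4.PA.dg.eq_1 := @CfH4.PA.dg.eq_1
theorem Helper8xdeca89cf1b_1 : type_of% @CfH4.PA.mm.eq_1 := @CfH4.PA.mm.eq_1
theorem Helper8xdeca89cf1b_2 : type_of% @CfH4.PA.uu.congr_simp := @CfH4.PA.uu.congr_simp
theorem Helper8xdeca89cf1b_3 : type_of% @CfH4.PA.uu.eq_1 := @CfH4.PA.uu.eq_1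
end CfOD
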