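import Mathlib
import Cfsg.Agent.H4.Ru9
/-! Unique holder of lemmas Lean writes on demand. -/
set_option linter.all false
namespace CfOD
theorem Helper4x5eaa14797e_0 : type_of% @CfH4.Ru.O12.eq_1 := @CfH4.Ru.O12.eq_1
theorem Helper4x5eaa14797e_1 : type_of% @CfH4.Ru.cw.eq_1 := @CfH4.Ru.cw.eq_1
theorem Helper4x5eaa14797e_2 : type_of% @CfH4.Ru.cw.eq_2 := @CfH4.Ru.cw.eq_2
theorem Helper4x5eaa14797e_3 : type_of% @CfH4.Ru.cw.eq_def := @CfH4.Ru.cw.eq_def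
theorem Helper4x5eaa14797e_4 : type_of% @CfH4.Ru.fib.eq_1 := @CfH4.Ru.fib.eq_1
theorem Helper4x5eaa14797e_5 : type_of% @CfH4.Ru.gg.eq_1 := @CfH4.Ru.gg.eq_1
theorem Helper4x5eaa14797e_6 : type_of% @CfH4.Ru.ss.eq_1 := @CfH4.Ru.ss.eq_1
theorem Helper4x5eaa14797e_7 : type_of% @CfH4.Ru.tt.eq_1 := @CfH4.Ru.tt.eq_1
end CfOD
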