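import Mathlib
import Cfsg.Agent.H5.JC2
/-! Unique holder of lemmas Lean writes on demand. -/
set_option linter.all false
namespace CfOD
theorem Helper5x7f40a59c2e_0 : type_of% @CfH5.JC.tr.eq_1 := @CfH5.JC.tr.eq_1
end CfOD
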