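import Mathlib
import Cfsg.Agent.H6.N23Q2
/-! Unique holder of lemmas Lean writes on demand. -/
set_option linter.all false
namespace CfOD
theorem Helper6x5032eb9d8f_0 : type_of% @CfH6.QC.H1.eq_1 := @CfH6.QC.H1.eq_1
theorem Helper6x5032eb9d8f_1 : type_of% @CfH6.QC.SA.eq_1 := @CfH6.QC.SA.eq_1
theorem Helper6x5032eb9d8f_2 : type_of% @CfH6.QC.SN.eq_1 := @CfH6.QC.SN.eq_1
theorem Helper6x5032eb9d8f_3 : type_of% @CfH6.QC.n3.eq_1 := @CfH6.QC.n3.eq_1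
theorem Helper6x5032eb9d8f_4 : type_of% @CfH6.QC.rc.eq_1 := @CfH6.QC.rc.eq_1
end CfOD
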