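import Mathlib
import Cfsg.Agent.H6.N23a
/-! Unique holder of lemmas Lean writes on demand. -/
set_option linter.all false
namespace CfOD
theorem Helper9xe8adf26a43_0 : type_of% @CfH6.M23.rA.eq_1 := @CfH6.M23.rA.eq_1
theorem Helper9xe8adf26a43_1 : type_of% @CfH6.M23.rE.eq_1 := @CfH6.M23.rE.eq_1
theorem Helper9xe8adf26a43_2 : type_of% @CfH6.M23.rM.eq_1 := @CfH6.M23.rM.eq_1
theorem Helper9xe8adf26a43_3 : type_of% @CfH6.M23.rN.eq_1 := @CfH6.M23.rN.eq_1
end CfOD
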