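import Mathlib
import Cfsg.Agent.H7.SW1
/-! Unique holder of lemmas Lean writes on demand. -/
set_option linter.all false
namespace CfOD
theorem Helper7x4587453145_0 : type_of% @CfH7.SW.ws.eq_1 := @CfH7.SW.ws.eq_1
theorem Helper7x4587453145_1 : type_of% @CfH7.SW.ws.eq_2 := @CfH7.SW.ws.eq_2
end CfOD
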