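import Mathlib
import Cfsg.Agent.H8.DW
/-! Unique holder of lemmas Lean writes on demand. -/
set_option linter.all false
namespace CfOD
theorem Helper9x2e930f4fb1_0 : type_of% @CfH8.C2.RP.eq_1 := @CfH8.C2.RP.eq_1
theorem Helper9x2e930f4fb1_1 : type_of% @CfH8.C2.wa.eq_1 := @CfH8.C2.wa.eq_1
theorem Helper9x2e930f4fb1_2 : type_of% @CfH8.C2.wtd.eq_1 := @CfH8.C2.wtd.eq_1
end CfOD
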