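import Mathlib
import Cfsg.Agent.H8.ONU
/-! Unique holder of lemmas Lean writes on demand. -/
set_option linter.all false
namespace CfOD
theorem Helper8x40a7b24b35_0 : type_of% @CfH8.ON.HC_subs.eq_1 := @CfH8.ON.HC_subs.eq_1
theorem Helper8x40a7b24b35_1 : type_of% @CfH8.ON.UC_subs.eq_1 := @CfH8.ON.UC_subs.eq_1
theorem Helper8x40a7b24b35_2 : type_of% @CfH8.ON.Uil.eq_1 := @CfH8.ON.Uil.eq_1
theorem Helper8x40a7b24b35_3 : type_of% @CfH8.ON.Urels.eq_1 := @CfH8.ON.Urels.eq_1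
end CfOD
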