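import Mathlib
import Cfsg.Agent.H8.ONTF
/-! Unique holder of lemmas Lean writes on demand. -/
set_option linter.all false
namespace CfOD
theorem Helper8xa0a56f37a6_0 : type_of% @CfH8.ON.Cn.eq_1 := @CfH8.ON.Cn.eq_1
theorem Helper8xa0a56f37a6_1 : type_of% @CfH8.ON.H1.eq_1 := @CfH8.ON.H1.eq_1
theorem Helper8xa0a56f37a6_2 : type_of% @CfH8.ON.H2.eq_1 := @CfH8.ON.H2.eq_1
theorem Helper8xa0a56f37a6_3 : type_of% @CfH8.ON.H3.eq_1 := @CfH8.ON.H3.eq_1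
theorem Helper8xa0a56f37a6_4 : type_of% @CfH8.ON.chkD.eq_1 := @CfH8.ON.chkD.eq_1
theorem Helper8xa0a56f37a6_5 : type_of% @CfH8.ON.chkG.eq_1 := @CfH8.ON.chkG.eq_1
theorem Helper8xa0a56f37a6_6 : type_of% @CfH8.ON.cj3.eq_1 := @CfH8.ON.cj3.eq_1
theorem Helper8xa0a56f37a6_7 : type_of% @CfH8.ON.stN.eq_1 := @CfH8.ON.stN.eq_1
end CfOD
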