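import Mathlib
import Cfsg.Agent.H9.Ree1
/-! Unique holder of lemmas Lean writes on demand. -/
set_option linter.all false
namespace CfOD
theorem Helper9x232aef550a_0 : type_of% @CfH9.Ree.M0.eq_1 := @CfH9.Ree.M0.eq_1
theorem Helper9x232aef550a_1 : type_of% @CfH9.Ree.csL.eq_1 := @CfH9.Ree.csL.eq_1
theorem Helper9x232aef550a_2 : type_of% @CfH9.Ree.csR.eq_1 := @CfH9.Ree.csR.eq_1
theorem Helper9x232aef550a_3 : type_of% @CfH9.Ree.vr.eq_1 := @CfH9.Ree.vr.eq_1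
theorem Helper9x232aef550a_4 : type_of% @CfH9.Ree.wp.eq_1 := @CfH9.Ree.wp.eq_1
theorem Helper9x232aef550a_5 : type_of% @CfH9.Ree.wp.eq_2 := @CfH9.Ree.wp.eq_2
theorem Helper9x232aef550a_6 : type_of% @CfH9.Ree.wp.eq_def := @CfH9.Ree.wp.eq_def
end CfOD
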