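import Mathlib
import Cfsg.Agent.L.J1a
/-! Unique holder of lemmas Lean writes on demand. -/
set_option linter.all false
namespace CfOD
theorem Leadx050423aebf_0 : type_of% @CfL.JH.V.eq_1 := @CfL.JH.V.eq_1
theorem Leadx050423aebf_1 : type_of% @CfL.JH.X3.eq_1 := @CfL.JH.X3.eq_1
theorem Leadx050423aebf_2 : type_of% @CfL.JH.X5.eq_1 := @CfL.JH.X5.eq_1
theorem Leadx050423aebf_3 : type_of% @CfL.JH.c1.eq_1 := @CfL.JH.c1.eq_1
theorem Leadx050423aebf_4 : type_of% @CfL.JH.c3.eq_1 := @CfL.JH.c3.eq_1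
theorem Leadx050423aebf_5 : type_of% @CfL.JH.lin.eq_1 := @CfL.JH.lin.eq_1
theorem Leadx050423aebf_6 : type_of% @CfL.JH.wd.eq_1 := @CfL.JH.wd.eq_1
theorem Leadx050423aebf_7 : type_of% @CfL.JH.wd.eq_2 := @CfL.JH.wd.eq_2
theorem Leadx050423aebf_8 : type_of% @CfL.JH.wd.eq_def := @CfL.JH.wd.eq_def
end CfOD
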