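import Mathlib
import Cfsg.Agent.L.J1T
/-! Unique holder of lemmas Lean writes on demand. -/
set_option linter.all false
namespace CfOD
theorem Leadx9322901eff_0 : type_of% @CfL.jB.eq_1 := @CfL.jB.eq_1
theorem Leadx9322901eff_1 : type_of% @CfL.jNil.eq_1 := @CfL.jNil.eq_1
theorem Leadx9322901eff_2 : type_of% @CfL.jNrels.eq_1 := @CfL.jNrels.eq_1
theorem Leadx9322901eff_3 : type_of% @CfL.jil.eq_1 := @CfL.jil.eq_1
end CfOD
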