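import Mathlib
import Cfsg.Agent.L.CA
/-! Unique holder of lemmas Lean writes on demand. -/
set_option linter.all false
namespace CfOD
theorem Leadx902790a749_0 : type_of% @CfL.Rep.pt.congr_simp := @CfL.Rep.pt.congr_simp
end CfOD
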