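import Mathlib
/-! Unique holder of lemmas Lean writes on demand. -/
set_option linter.all false
namespace CfOD
theorem Helper2x4e724aec38_0 : type_of% @Matrix.GeneralLinearGroup.scalar.eq_1 := @Matrix.GeneralLinearGroup.scalar.eq_1
end CfOD
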