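import Mathlib
/-! Unique holder of lemmas Lean writes on demand. -/
set_option linter.all false
namespace CfOD
theorem Helper2xa36a137120_0 : type_of% @Sylow.mk.congr_simp := @Sylow.mk.congr_simp
end CfOD
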