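import Mathlib
/-! Unique holder of lemmas Lean writes on demand. -/
set_option linter.all false
namespace CfOD
theorem Helper3xdbc20513d5_0 : type_of% @Equiv.Perm.extendDomainHom.congr_simp := @Equiv.Perm.extendDomainHom.congr_simp
end CfOD
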