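import Mathlib
import Cfsg.Agent.H8.ONT
/-! Unique holder of lemmas Lean writes on demand. -/
set_option linter.all false
namespace CfOD
theorem Helper8x06ca1de6de_0 : type_of% @CfH8.ON.TB.cnt.congr_simp := @CfH8.ON.TB.cnt.congr_simp
theorem Helper8x06ca1de6de_1 : type_of% @CfH8.ON.Tb.ok2.eq_1 := @CfH8.ON.Tb.ok2.eq_1
end CfOD
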